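import Mathlib.Tactic
import Cfsg.Agent.Lib.CosetCert.Chain2
import Cfsg.Agent.Lib.CosetCert.D.OnM11.Lv0.Ok
import Cfsg.Agent.Lib.CosetCert.D.OnM11.Lv1.Ok
import Cfsg.Agent.Lib.CosetCert.D.OnM11.Lv2.Ok

namespace Cfsg.Agent.Lib.CosetCert.D.OnM11.Final

open Cfsg.Agent.Lib.CosetCert Cfsg.Agent.Lib.TC.Core Cfsg.Agent.Lib.TC.Enc Cfsg.Agent.Lib.TC.Pres Cfsg.Agent.Lib.TC.Perm Cfsg.Agent.Lib.TC.Main

set_option maxRecDepth 100000

open Cfsg.Agent.Lib.CosetCert.D.OnM11.Tbl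

/-- The label of an index. -/
noncomputable def lab : ℕ → ℕ := cell 2 3 (nat_lit 0x156655665559a6555996566996a4)

/-- The representatives. -/
def rep (i : ℕ) : ℕ := [0,1,2].getD i 0

/-- The parent in the forest. -/
noncomputable def fp : ℕ → ℕ := cell 6 63 (nat_lit 0x29d0f461d83d468256210728e93cd16d08d0823431591b49817e579475f0600495c985778f95c080000)

/-- The letter in the forest. -/
noncomputable def fl : ℕ → ℕ := cell 2 3 (nat_lit 0x17baa758e472bfa0783426986840)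

/-- The depth in the forest. -/
noncomputable def fd : ℕ → ℕ := cell 3 7 (nat_lit 0x9a89a8db88ba9290a25291b65351a2cb8d449b200)

/-- The words to the representatives. -/
def tw (i : ℕ) : List ℕ := [[],[0],[1]].getD i []

/-- The witness indices. -/
def cw (i j : ℕ) : ℕ := ([[0,0,0],[0,0,5],[0,4,0]].getD i []).getD j 0

/-- The depths of the connections. -/
def cd (i j : ℕ) : ℕ := ([[0,0,0],[0,1,2],[0,2,1]].getD i []).getD j 0

theorem hforestR : allR (guard 55 (forestOK' F1 4 55 Cfsg.Agent.Lib.CosetCert.D.OnM11.Lv0.Ok.pt lab rep fp fl fd)) 6 0 = true := by decide +kernel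

theorem hlabR : allR (guard 55 (fun c => Nat.blt (lab c) 3)) 6 0 = true := by decide +kernel

theorem hptR : allR (guard 55 (fun c => Nat.blt (Cfsg.Agent.Lib.CosetCert.D.OnM11.Lv0.Ok.pt c) 55)) 6 0 = true := by decide +kernel

theorem htwK : twOK F0 3 0 (fun i => Cfsg.Agent.Lib.CosetCert.D.OnM11.Lv0.Ok.pt (rep i)) tw 3 = true := by decide +kernel

theorem hconnK : connOK' F0 55 Cfsg.Agent.Lib.CosetCert.D.OnM11.Lv0.Ok.pt Cfsg.Agent.Lib.CosetCert.D.OnM11.Lv0.Ok.ptInv lab tw cw cd 3 = true := by decide +kernel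

theorem hmax (K : Subgroup (Equiv.Perm (Fin 55))) (hSK : L1.G ≤ K) (hKG : K ≤ L0.G) (hne : K ≠ L1.G) : K = L0.G :=
  maximal_of_forest' L0 L1 Cfsg.Agent.Lib.CosetCert.D.OnM11.Lv0.Ok.result (ptInv := Cfsg.Agent.Lib.CosetCert.D.OnM11.Lv0.Ok.ptInv) (fun c hc => (orbOK_spec (all_of_allR (by decide) Cfsg.Agent.Lib.CosetCert.D.OnM11.Lv0.Ok.horb c hc)).1)
    (all_of_allR (by decide) hforestR) (fun c hc => Nat.le_of_ble_eq_true (all_of_allR (by decide) hptR c hc))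
    (nl := 3) (fun c hc => Nat.le_of_ble_eq_true (all_of_allR (by decide) hlabR c hc)) (by decide +kernel) Cfsg.Agent.Lib.CosetCert.D.OnM11.Lv0.Ok.h0pt tw (twOK_spec htwK) cw cd (connOK'_spec hconnK) K hSK hKG hne

theorem card3 : Nat.card L3.G = 1 := L3.card_G_of_k_eq_zero rfl

theorem card2 : Nat.card L2.G = 4 := by
  have h := Cfsg.Agent.Lib.CosetCert.D.OnM11.Lv2.Ok.result.card
  rw [card3] at h
  omega

theorem card1 : Nat.card L1.G = 144 := by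
  have h := Cfsg.Agent.Lib.CosetCert.D.OnM11.Lv1.Ok.result.card
  rw [card2] at h
  omega

theorem card0 : Nat.card L0.G = 7920 := by
  have h := Cfsg.Agent.Lib.CosetCert.D.OnM11.Lv0.Ok.result.card
  rw [card1] at h
  omega

theorem hfaith : ∀ g ∈ L0.G, (∀ h ∈ L0.G, g (h Cfsg.Agent.Lib.CosetCert.D.OnM11.Lv0.Ok.p) = h Cfsg.Agent.Lib.CosetCert.D.OnM11.Lv0.Ok.p) → g = 1 := by
  intro g hg hfix
  have g1 : g ∈ L1.G := Cfsg.Agent.Lib.CosetCert.D.OnM11.Lv0.Ok.result.stab g hg (by simpa using hfix 1 (Subgroup.one_mem _))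
  obtain ⟨h1, hm1, he1⟩ := Cfsg.Agent.Lib.CosetCert.D.OnM11.Lv0.Ok.result.orbit 1 (by decide)
  have e1 : h1 Cfsg.Agent.Lib.CosetCert.D.OnM11.Lv0.Ok.p = Cfsg.Agent.Lib.CosetCert.D.OnM11.Lv1.Ok.p := Fin.ext (he1.trans (by decide +kernel))
  have g2 : g ∈ L2.G := Cfsg.Agent.Lib.CosetCert.D.OnM11.Lv1.Ok.result.stab g g1 (by rw [← e1]; exact hfix h1 hm1)
  obtain ⟨h2, hm2, he2⟩ := Cfsg.Agent.Lib.CosetCert.D.OnM11.Lv0.Ok.result.orbit 32 (by decide)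
  have e2 : h2 Cfsg.Agent.Lib.CosetCert.D.OnM11.Lv0.Ok.p = Cfsg.Agent.Lib.CosetCert.D.OnM11.Lv2.Ok.p := Fin.ext (he2.trans (by decide +kernel))
  have g3 : g ∈ L3.G := Cfsg.Agent.Lib.CosetCert.D.OnM11.Lv2.Ok.result.stab g g2 (by rw [← e2]; exact hfix h2 hm2)
  exact L3.eq_one_of_k_eq_zero rfl g3

theorem hrelA : ∀ l ∈ Cfsg.Agent.Lib.CosetCert.D.OnM11.Lv0.Tab.rels, ev L0.val l = 1 := fun _ hl =>
  L0.ev_one_of_wordFixes Cfsg.Agent.Lib.CosetCert.D.OnM11.Lv0.Ok.hrelk (all_of_allR (by decide) Cfsg.Agent.Lib.CosetCert.D.OnM11.Lv0.Ok.hrelR) hl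

/-- The elements of orders prime to the stabiliser. -/
def xs : List (List ℕ × ℕ) := [([2,0,1,0,2,2],11),([1,1,0,2,0,1,0],5),([1,1,0,2,0,2,2,0,1,0],5),([0,2,0,1,1,0,1,0,2],5),([2,2,0,2,0,2,2,0,1,0],5),([0,2,0,1,1,0,1,0,1],5)]

/-- The words of the letters. -/
def lw : List (List ℕ) := [[2,0,1,0,2,2,1,1,0,2,0,1,0],[1,1,0,2,0,2,2,0,1,0,0,2,0,1,1,0,1,0,2],[2,2,0,2,0,2,2,0,1,0,0,2,0,1,1,0,1,0,1]]

theorem hlwR : allR (guard 55 (fun x => wordIs F0 F0 lw x 0)) 6 0 = true := by decide +kernel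

theorem hxs : ∀ x ∈ xs, (∀ z ∈ x.1, z < L0.k) ∧ (Nat.card L1.G).Coprime x.2 ∧ (ev L0.val x.1) ^ x.2 = 1 := by
  rw [card1]
  exact hxs_of L0 hrelA xs (by decide +kernel)

theorem hlet : ∀ l, l < L0.k → ∃ u ∈ xs, ∃ v ∈ xs, L0.val l = ev L0.val (u.1 ++ v.1) :=
  hlet_of L0 (lw := lw) rfl (by decide +kernel) (all_of_allR (by decide) hlwR) xs (by decide +kernel)

theorem simple : IsSimpleGroup L0.G :=
  isSimple_of_level' L0 L1 Cfsg.Agent.Lib.CosetCert.D.OnM11.Lv0.Ok.result hfaith hmax (by rw [card0]; norm_num) xs hxs hlet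

end Cfsg.Agent.Lib.CosetCert.D.OnM11.Final
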