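import Cfsg.Agent.Lib.CosetCert.Chain
import Cfsg.Agent.Lib.TC.Main

namespace Cfsg.Agent.Lib.CosetCert.D.OnM11.Tbl

open Cfsg.Agent.Lib.CosetCert Cfsg.Agent.Lib.TC.Core Cfsg.Agent.Lib.TC.Enc Cfsg.Agent.Lib.TC.Pres Cfsg.Agent.Lib.TC.Perm Cfsg.Agent.Lib.TC.Main

set_option maxRecDepth 100000

/-- The letters of level 0. -/
noncomputable def tree0 : Tr Nat := (Tr.node (Tr.node (Tr.leaf (nat_lit 0x36cb4cf5b2ba2e9b1c207ef92d8e79585eaa5b51379246285039d71a6562953481cf14c2c22440c6001)) (Tr.leaf (nat_lit 0x32d71dafd30ce68e2969b1eb9d6ad66aad6a159dc4a191080f7cd6cc60b5d425344638408a2011c0143))) (Tr.node (Tr.leaf (nat_lit 0x33d71bf6d30ca7929862a9f76ead9b6c69756899c4e58d13e078e31b2d85895124063450ca048007102)) (Tr.leaf (nat_lit 0x0))))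

/-- The function of the letters. -/
noncomputable def F0 : ℕ → ℕ → ℕ := fun l x => cell 6 63 (tree0.get l) x

/-- The inverse letters. -/
def inv0 (l : ℕ) : ℕ := [0,2,1].getD l 0

theorem chk0 : lettersChk 3 F0 inv0 55 6 = true := by decide +kernel

/-- The letters. -/
noncomputable def L0 : Letters 55 :=
  Letters.ofChk 3 F0 inv0 55 6 (by decide) (by decide) (by decide) chk0

/-- The letters of level 1. -/
noncomputable def tree1 : Tr Nat := (Tr.node (Tr.node (Tr.leaf (nat_lit 0x36d586e8beac66b6c8f07728ae50dae7096413a44cce1b422032579149f05a9152c70d729915c2613c0)) (Tr.leaf (nat_lit 0x31bcf4a1da8d745e59d099c8d615922d24e542343b186a42c1791a94cc419d83288a32b1ee6d3c1fa40))) (Tr.node (Tr.leaf (nat_lit 0x29d35cf2515224819621d9c9d73ee14eaad7c746869bb2b996c3130b7449620534892af7868d0083340)) (Tr.leaf (nat_lit 0x31bee44cd83d4689b213070ae9b189cbc8d0953a815991ab667d213352ad207495ca8631cf95071e580))))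

/-- The function of the letters. -/
noncomputable def F1 : ℕ → ℕ → ℕ := fun l x => cell 6 63 (tree1.get l) x

/-- The inverse letters. -/
def inv1 (l : ℕ) : ℕ := [0,1,3,2].getD l 0

theorem chk1 : lettersChk 4 F1 inv1 55 6 = true := by decide +kernel

/-- The letters. -/
noncomputable def L1 : Letters 55 :=
  Letters.ofChk 4 F1 inv1 55 6 (by decide) (by decide) (by decide) chk1

/-- The letters of level 2. -/
noncomputable def tree2 : Tr Nat := (Tr.node (Tr.leaf (nat_lit 0x11ad936a99f3ee758d7281e9316a78d4869c28b43225d2c38b562112d89bd7cca58c41b085193707040)) (Tr.leaf (nat_lit 0x34a76cdf52a22e61d830d4c9e26a44a656bc8ab133e546d3868717236426d736815e1ef2562c3110040)))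

/-- The function of the letters. -/
noncomputable def F2 : ℕ → ℕ → ℕ := fun l x => cell 6 63 (tree2.get l) x

/-- The inverse letters. -/
def inv2 (l : ℕ) : ℕ := [0,1].getD l 0

theorem chk2 : lettersChk 2 F2 inv2 55 6 = true := by decide +kernel

/-- The letters. -/
noncomputable def L2 : Letters 55 :=
  Letters.ofChk 2 F2 inv2 55 6 (by decide) (by decide) (by decide) chk2

/-- The function of the letters of the bottom. -/
noncomputable def F3 : ℕ → ℕ → ℕ := fun _ x => x

/-- The inverse letters. -/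
def inv3 (l : ℕ) : ℕ := l

theorem chk3 : lettersChk 0 F3 inv3 55 6 = true := by decide +kernel

/-- The letters. -/
noncomputable def L3 : Letters 55 :=
  Letters.ofChk 0 F3 inv3 55 6 (by decide) (by decide) (by decide) chk3

end Cfsg.Agent.Lib.CosetCert.D.OnM11.Tbl
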